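import Cfsg.Agent.Lib.Mult.Glue
import Cfsg.Agent.Lib.Mult.Net

/-! Stem extensions from a certified presentation and permutation actions of the covers. -/

set_option autoImplicit false

namespace Cfsg.Agent.Mult

open Cfsg.Agent.CG Subgroup
open scoped commutatorElement

universe u v

/-- The existence half of `HasSchurMultiplier`. -/
def EX (G : Type u) [Group G] (A : Type v) [CommGroup A] : Prop :=
  ∃ (Γ : Type u) (_ : Group Γ) (_ : Finite Γ) (σ : Γ →* G), IsStemExtension σ ∧ Nonempty (σ.ker ≃* A)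

theorem EX.of_equiv {G : Type u} [Group G] {A : Type v} {A' : Type*} [CommGroup A] [CommGroup A']
    (h : EX G A) (e : A ≃* A') : EX G A' := by
  obtain ⟨Γ, _, _, σ, hσ, ⟨f⟩⟩ := h
  exact ⟨Γ, inferInstance, inferInstance, σ, hσ, ⟨f.trans e⟩⟩

theorem EX.coprime {G : Type u} [Group G] {m m' : ℕ} (h : EX G (Multiplicative (ZMod m × ZMod m')))
    (hc : m.Coprime m') : EX G (Multiplicative (ZMod (m * m'))) :=
  h.of_equiv (AddEquiv.toMultiplicative (ZMod.chineseRemainder hc).toAddEquiv).symm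

theorem isStem_precomp {Γ Γ' H : Type*} [Group Γ] [Group Γ'] [Group H] {σ : Γ →* H} (d : Γ' ≃* Γ)
    (h : IsStemExtension σ) : IsStemExtension (σ.comp d.toMonoidHom) ∧
      Nonempty ((σ.comp d.toMonoidHom).ker ≃* σ.ker) := by
  refine ⟨⟨h.1.comp d.surjective, fun x hx => mem_center_iff.mpr fun g => d.injective ?_, fun x hx => ?_⟩,
    ⟨(d.subgroupMap _).trans (MulEquiv.subgroupCongr ?_)⟩⟩
  · rw [map_mul, map_mul]; exact mem_center_iff.mp (h.2.1 hx) _
  · have h1 := mem_map_of_mem d.symm.toMonoidHom (h.2.2 hx)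
    rw [commutator_def, map_commutator] at h1
    rw [commutator_def]
    simpa using commutator_mono le_top le_top h1
  · rw [← MonoidHom.comap_ker]; exact map_comap_eq_self_of_surjective d.surjective _

/-- Transport of the Schur multiplier along an isomorphism, across universes. -/
theorem hasSchurMultiplier_univ {G : Type} {G' : Type u} [Group G] [Group G'] {A : Type v} [CommGroup A]
    (e : G ≃* G') (h : HasSchurMultiplier G A) : HasSchurMultiplier G' A := by
  obtain ⟨⟨Γ, _, _, σ, hσ, ⟨f⟩⟩, h2⟩ := h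
  constructor
  · obtain ⟨k1, ⟨k2⟩⟩ := isStem_precomp (MulEquiv.ulift : ULift.{u} Γ ≃* Γ) (isStem_comp hσ e)
    exact ⟨ULift.{u} Γ, inferInstance, inferInstance, _, k1,
      ⟨k2.trans ((MulEquiv.subgroupCongr (by ext; simp)).trans f)⟩⟩
  · intro Γ _ _ σ hσ
    obtain ⟨k1, ⟨k2⟩⟩ := isStem_precomp (Shrink.mulEquiv : Shrink.{0} Γ ≃* Γ) (isStem_comp hσ e.symm)
    have : Finite (Shrink.{0} Γ) := Finite.of_equiv Γ (equivShrink.{0} Γ)
    obtain ⟨π, hπ⟩ := h2 _ _ k1
    have k3 : (e.symm.toMonoidHom.comp σ).ker ≃* σ.ker := MulEquiv.subgroupCongr (by ext; simp)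
    exact ⟨(k2.trans k3).toMonoidHom.comp π, (k2.trans k3).surjective.comp hπ⟩

/-- Lifts `s a` of the letters to a finite group in which the relators `R` lie in a central copy of `A`; the list
`c` holds the values of the commutators of the pairs of words `P`. -/
def PL (R : List (List ℕ)) (P : List (List ℕ × List ℕ)) (A : Type) [AddCommGroup A] (c : List A) : Prop :=
  ∃ (E : Type) (_ : Group E) (_ : Finite E) (s : ℕ → E) (ι : Multiplicative A →* E),
    Function.Injective ι ∧ (∀ a x, Commute (ι a) (s x)) ∧ (∀ r ∈ R, ev s r ∈ ι.range) ∧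
    List.Forall₂ (fun p c => ∀ a, ev s (p.1 ++ p.2) = ι a * ev s (p.2 ++ p.1) → a.toAdd = c) P c

theorem PL.prod {R : List (List ℕ)} {P : List (List ℕ × List ℕ)} {A B : Type} [AddCommGroup A]
    [AddCommGroup B] {c : List A} {d : List B} (h : PL R P A c) (h' : PL R P B d) :
    PL R P (A × B) (c.zip d) := by
  obtain ⟨E, _, _, s, ι, a1, a2, a3, a4⟩ := h
  obtain ⟨E', _, _, s', ι', b1, b2, b3, b4⟩ := h'
  have e1 : ∀ w, (ev (fun x => (s x, s' x)) w).1 = ev s w := map_ev _ (MonoidHom.fst E E')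
  have e2 : ∀ w, (ev (fun x => (s x, s' x)) w).2 = ev s' w := map_ev _ (MonoidHom.snd E E')
  refine ⟨E × E', inferInstance, inferInstance, fun x => (s x, s' x),
    (ι.prodMap ι').comp (MulEquiv.prodMultiplicative A B).toMonoidHom,
    (a1.prodMap b1).comp (MulEquiv.prodMultiplicative A B).injective,
    fun a x => Prod.ext (a2 _ x) (b2 _ x), fun r hr => ?_, ?_⟩
  · obtain ⟨a, ha⟩ := a3 r hr
    obtain ⟨b, hb⟩ := b3 r hr
    exact ⟨Multiplicative.ofAdd (a.toAdd, b.toAdd), Prod.ext (ha.trans (e1 r).symm) (hb.trans (e2 r).symm)⟩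
  · clear a3 b3
    induction a4 generalizing d with
    | nil => cases b4; exact List.Forall₂.nil
    | cons f1 _ ih =>
      obtain _ | ⟨g1, g2⟩ := b4
      refine List.Forall₂.cons (fun a ha => Prod.ext (f1 (Multiplicative.ofAdd a.toAdd.1) ?_)
        (g1 (Multiplicative.ofAdd a.toAdd.2) ?_)) (ih g2)
      · rw [← e1, ← e1, ha]; rfl
      · rw [← e2, ← e2, ha]; rfl

theorem PL.ex {G : Type} [Group G] [Finite G] {gen : ℕ → G} {R : List (List ℕ)} {S : List ℕ} {N : ℕ}
    (hb : Bounds R S N) (hG : ∀ r ∈ R, ev gen r = 1) (hS : cl gen S = ⊤) (hN : N ≤ Nat.card G)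
    {P : List (List ℕ × List ℕ)} {A : Type} [AddCommGroup A] {c : List A} (h : PL R P A c)
    (hP : ∀ p ∈ P, (∀ a ∈ p.1 ++ p.2, a ∈ S) ∧ ev gen (p.1 ++ p.2) = ev gen (p.2 ++ p.1))
    (hc : ∀ K : AddSubgroup A, (∀ x ∈ c, x ∈ K) → K = ⊤) : EX G (Multiplicative A) := by
  obtain ⟨E, _, _, s, ι, a1, a2, a3, a4⟩ := h
  let C := centralizer (ι.range : Set E)
  let s' : ℕ → C := fun x => ⟨s x, by rintro _ ⟨a, rfl⟩; exact a2 a x⟩
  let i : Multiplicative A →* C := ι.codRestrict C fun a => by
    rintro _ ⟨b, rfl⟩; rw [← map_mul, ← map_mul, mul_comm]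
  have e0 : ∀ w, ((ev s' w : C) : E) = ev s w := map_ev s' C.subtype
  have hic : ∀ a g, g * i a = i a * g := fun a g => Subtype.ext (g.2 _ ⟨a, rfl⟩).symm
  have hn : i.range.Normal := ⟨by rintro _ ⟨a, rfl⟩ g; rw [hic, mul_inv_cancel_right]; exact ⟨a, rfl⟩⟩
  obtain ⟨f, hf⟩ := hb.lift hG hS hN (fun x => QuotientGroup.mk' i.range (s' x)) fun r hr => by
    rw [← map_ev, QuotientGroup.mk'_apply, QuotientGroup.eq_one_iff]
    obtain ⟨a, ha⟩ := a3 r hr
    exact ⟨a, Subtype.ext (ha.trans (e0 r).symm)⟩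
  let Γ : Subgroup (C × G) :=
    ((QuotientGroup.mk' i.range).comp (MonoidHom.fst C G)).eqLocus (f.comp (MonoidHom.snd C G))
  let σ : Γ →* G := (MonoidHom.snd C G).comp Γ.subtype
  let j : Multiplicative A →* Γ := ((MonoidHom.inl C G).comp i).codRestrict Γ fun a =>
    ((QuotientGroup.eq_one_iff (N := i.range) (i a)).mpr ⟨a, rfl⟩).trans f.map_one.symm
  have hker : σ.ker = j.range := by
    ext x
    constructor
    · intro hx
      have h1 : x.1.2 = 1 := hx
      have h2 : QuotientGroup.mk' i.range x.1.1 = f x.1.2 := x.2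
      rw [h1, map_one, QuotientGroup.mk'_apply, QuotientGroup.eq_one_iff] at h2
      obtain ⟨a, ha⟩ := h2
      exact ⟨a, Subtype.ext (Prod.ext ha h1.symm)⟩
    · rintro ⟨a, rfl⟩; rfl
  have hm : ∀ w : List ℕ, (∀ a ∈ w, a ∈ S) → (ev s' w, ev gen w) ∈ Γ := fun w hw => by
    change QuotientGroup.mk' i.range (ev s' w) = f (ev gen w)
    rw [map_ev, map_ev]
    exact ev_congr _ fun a ha => (hf a (hw a ha)).symm
  refine ⟨Γ, inferInstance, inferInstance, σ, ⟨fun g => ?_, ?_, ?_⟩, ⟨?_⟩⟩
  · obtain ⟨x, hx⟩ := QuotientGroup.mk'_surjective i.range (f g)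
    exact ⟨⟨(x, g), hx⟩, rfl⟩
  · rw [hker]
    rintro _ ⟨a, rfl⟩
    exact mem_center_iff.mpr fun g => Subtype.ext (Prod.ext (hic a _) ((mul_one _).trans (one_mul _).symm))
  · have := hc ((commutator Γ).comap j).toAddSubgroup' fun x hx => ?_
    · rw [hker]
      rintro _ ⟨a, rfl⟩
      exact (this ▸ AddSubgroup.mem_top a.toAdd : a.toAdd ∈ ((commutator Γ).comap j).toAddSubgroup')
    · obtain ⟨k, hk, rfl⟩ := List.getElem_of_mem hx
      have hk' : k < P.length := a4.length_eq ▸ hk
      obtain ⟨b1, b2⟩ := hP _ (List.getElem_mem hk')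
      let x : Γ := ⟨_, hm P[k].1 fun a ha => b1 a (List.mem_append_left _ ha)⟩
      let y : Γ := ⟨_, hm P[k].2 fun a ha => b1 a (List.mem_append_right _ ha)⟩
      have b3 : ⁅x, y⁆ ∈ σ.ker := commutator_mem_ker (by
        rw [ev_append, ev_append] at b2; exact b2)
      rw [hker] at b3
      obtain ⟨a, ha⟩ := b3
      have b4 := a4.get hk' hk a (by
        have f3 : ι a = ev s' P[k].1 * ev s' P[k].2 * (ev s' P[k].1 : C)⁻¹ * (ev s' P[k].2 : C)⁻¹ :=
          congrArg (fun g : Γ => ((g : C × G).1 : E)) ha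
        simp only [List.get_eq_getElem, ev_append]
        rw [f3, coe_inv, coe_inv, e0, e0]; group)
      rw [List.get_eq_getElem] at b4
      rw [← b4]
      change j a ∈ commutator Γ
      rw [ha]
      exact commutator_mem_commutator (mem_top _) (mem_top _)
  · exact (MulEquiv.subgroupCongr hker).trans (MonoidHom.ofInjective (f := j) fun a b hab =>
      a1 (congrArg (fun g : Γ => ((g : C × G).1 : E)) hab)).symm

/-! ### Actions given by networks -/

/-- A power of a letter. -/
noncomputable def pw (z t : ℕ) : List ℕ := Nat.rec (motive := fun _ => List ℕ) [] (fun _ l => z :: l) t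

theorem ev_pw {G : Type*} [Monoid G] (s : ℕ → G) (z t : ℕ) : ev s (pw z t) = s z ^ t := by
  induction t with
  | zero => simp [pw]
  | succ t ih => rw [pow_succ', ← ih]; exact ev_cons _ _ _

/-- An action on `N ≤ 2 ^ k` points; the letter `z` is central of order `m`, the relators are its powers `ts`. -/
structure Mono where
  N : ℕ
  k : ℕ
  m : ℕ
  z : ℕ
  st : List (List (ℕ × ℕ))
  ts : List ℕ

namespace Mono
variable (D : Mono)

/-- The letters commute with `z`, and the relators are powers of `z`. -/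
noncomputable def chk (R : List (List ℕ)) (lo cnt : ℕ) : Bool :=
  force D.st.length fun l => allRange (fun j => force (Nat.div j D.k) fun e => force (Nat.mod j D.k) fun p =>
    Bool.rec (motive := fun _ => Bool) (eqP D.N D.k D.st [D.z, e] [e, D.z] p)
      (force (nth D.ts 0 (Nat.sub e l)) fun t => eqP D.N D.k D.st (nth R [] (Nat.sub e l)) (pw D.z t) p)
      (Nat.ble l e)) lo cnt

/-- The order of `z` and the values of the commutators. -/
noncomputable def chkP (P : List (List ℕ × List ℕ)) (c : List ℕ) : Bool :=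
  band (band (stOK D.N D.st) (allLt (eqP D.N D.k D.st (pw D.z D.m) []) D.k))
    (band (allRange (fun t => bnot (Nat.beq (apW D.st (pw D.z t) 1) 1)) 1 (Nat.pred D.m))
      (band (Nat.beq (lenL c) P.length) (allLt (fun i => allLt (fun t => bor (Nat.beq t (nth c 0 i))
        (bnot (Nat.beq (apW D.st (app2 (nth P ([], []) i).1 (nth P ([], []) i).2) 1)
          (apW D.st (app2 (pw D.z t) (app2 (nth P ([], []) i).2 (nth P ([], []) i).1)) 1)))) D.m) (lenL c))))

variable {D}

theorem chk_append {R : List (List ℕ)} {lo c e : ℕ} (h1 : D.chk R lo c = true)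
    (h2 : D.chk R (lo + c) e = true) : D.chk R lo (c + e) = true := by
  simp only [chk, force_eq] at *
  exact allRange_append h1 h2

theorem pl {R : List (List ℕ)} {P : List (List ℕ × List ℕ)} {c : List ℕ} {n : ℕ} [NeZero D.m]
    (hN : D.N ≤ 2 ^ D.k) (hn : (D.st.length + R.length) * D.k = n) (h1 : D.chk R 0 n = true)
    (h2 : D.chkP P c = true) : PL R P (ZMod D.m) (c.map Nat.cast) := by
  simp only [chk, chkP, force_eq, band_eq, bor_eq, bnot_eq, allLt_iff, allRange_iff, beq_iff, beq_false_iff,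
    lenL_eq, app2_eq] at h1 h2
  obtain ⟨⟨hs, hm⟩, ho, hl, hc⟩ := h2
  have m0 : 0 < D.m := Nat.pos_of_ne_zero (NeZero.ne _)
  have h3 : ∀ e, e < D.st.length + R.length → ∀ p, p < D.k → Bool.rec (motive := fun _ => Bool)
      (eqP D.N D.k D.st [D.z, e] [e, D.z] p) (eqP D.N D.k D.st (nth R [] (e - D.st.length))
        (pw D.z (nth D.ts 0 (e - D.st.length))) p) (Nat.ble D.st.length e) = true := fun e he p hp => by
    have := h1 (p + D.k * e) (Nat.zero_le _) (by nlinarith)
    rwa [show Nat.div (p + D.k * e) D.k = e from (Nat.add_mul_div_left _ _ (by omega)).trans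
      (by rw [Nat.div_eq_of_lt hp, zero_add]), show Nat.mod (p + D.k * e) D.k = p from
      (Nat.add_mul_mod_self_left _ _ _).trans (Nat.mod_eq_of_lt hp)] at this
  let s := net D.N D.st
  have zm : s D.z ^ D.m = 1 := (ev_pw s _ _).symm.trans (ev_eq_of_eqP hs hN hm)
  have zo : orderOf (s D.z) = D.m := (orderOf_eq_iff m0).mpr ⟨zm, fun t a1 a2 a3 =>
    ho t a2 (by change t < 1 + (D.m - 1); omega) (apW_congr hs (v := []) ((ev_pw s _ _).trans a3) 1)⟩
  let ι : Multiplicative (ZMod D.m) →* Fx D.N :=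
    { toFun := fun a => s D.z ^ a.toAdd.val
      map_one' := by simp
      map_mul' := fun a b => by rw [toAdd_mul, ZMod.val_add, ← pow_eq_pow_mod _ zm, pow_add] }
  refine ⟨_, inferInstance, inferInstance, s, ι, fun a b hab => ?_, fun a x => ?_, fun r hr => ?_, ?_⟩
  · exact ZMod.val_injective _ (pow_injOn_Iio_orderOf ((ZMod.val_lt _).trans_eq zo.symm)
      ((ZMod.val_lt _).trans_eq zo.symm) hab)
  · refine Commute.pow_left ?_ _
    by_cases hx : x < D.st.length
    · have := ev_eq_of_eqP hs hN fun p hp => by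
        have := h3 x (by omega) p hp
        rwa [show Nat.ble D.st.length x = false by simpa [← Bool.not_eq_true] using hx] at this
      simp only [ev_cons, ev_nil, mul_one] at this
      exact this
    · rw [show s x = 1 by simp only [s, net, nth_triv _ _ (not_lt.mp hx)]; rfl]
      exact Commute.one_right _
  · obtain ⟨i, hi, rfl⟩ := List.getElem_of_mem hr
    have := ev_eq_of_eqP hs hN fun p hp => by
      have := h3 (D.st.length + i) (by omega) p hp
      rwa [show Nat.ble D.st.length (D.st.length + i) = true by simp, Nat.add_sub_cancel_left, nth_eq R,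
        List.getD_eq_getElem _ _ hi] at this
    refine ⟨Multiplicative.ofAdd (nth D.ts 0 i : ℕ), ?_⟩
    rw [this, ev_pw]
    change s D.z ^ _ = _
    rw [toAdd_ofAdd, ZMod.val_natCast, ← pow_eq_pow_mod _ zm]
  · rw [List.forall₂_map_right_iff]
    refine List.forall₂_iff_get.mpr ⟨hl.symm, fun i a1 a2 a ha => ?_⟩
    have e := hc i a2 a.toAdd.val (ZMod.val_lt _)
    rw [nth_eq P, nth_eq c, List.getD_eq_getElem _ _ a1, List.getD_eq_getElem _ _ a2] at e
    rw [List.get_eq_getElem, ← e.resolve_right fun e => e (apW_congr hs ?_ 1), ZMod.natCast_zmod_val]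
    rw [ev_append _ (pw _ _), ev_pw]
    exact ha

attribute [irreducible] chk

end Mono

/-- The pairs of words commute and use the letters `S`. -/
noncomputable def chkPairs (app : ℕ → ℕ → ℕ) (B S : List ℕ) (P : List (List ℕ × List ℕ)) : Bool :=
  allL (fun p => band (lettersIn S [app2 p.1 p.2]) (eqW app B (app2 p.1 p.2) (app2 p.2 p.1))) P

theorem pairs_of_chk {G X : Type*} [Group G] [MulAction G X] {A : Act G X} {B S : List ℕ}
    (hB : A.IsBase B) {P : List (List ℕ × List ℕ)} (h : chkPairs A.app B S P = true) :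
    ∀ p ∈ P, (∀ a ∈ p.1 ++ p.2, a ∈ S) ∧ ev A.gen (p.1 ++ p.2) = ev A.gen (p.2 ++ p.1) := by
  simp only [chkPairs, allL_iff, band_eq, app2_eq, lettersIn_iff] at h
  exact fun p hp => ⟨(h p hp).1 _ (by simp), hB.ev_eq (h p hp).2⟩

/-- All combinations of a list with coefficients below `k`. -/
def spanL {A : Type} [AddCommGroup A] (k : ℕ) : List A → List A
  | [] => [0]
  | c :: l => (spanL k l).flatMap fun x => (List.range k).map fun t => x + t • c

theorem top_of_spanL {A : Type} [AddCommGroup A] {k : ℕ} {c : List A} (h : ∀ a, a ∈ spanL k c) :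
    ∀ K : AddSubgroup A, (∀ x ∈ c, x ∈ K) → K = ⊤ := by
  intro K hK
  have : ∀ l : List A, (∀ x ∈ l, x ∈ K) → ∀ a ∈ spanL k l, a ∈ K := by
    intro l
    induction l with
    | nil => intro _ a ha; rw [List.mem_singleton.mp ha]; exact zero_mem _
    | cons c l ih =>
      intro hl a ha
      simp only [spanL, List.mem_flatMap, List.mem_map] at ha
      obtain ⟨x, hx, t, -, rfl⟩ := ha
      exact add_mem (ih (fun y hy => hl y (by simp [hy])) x hx) (nsmul_mem (hl c (by simp)) t)
  exact eq_top_iff.mpr fun a _ => this c hK a (h a)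

end Cfsg.Agent.Mult
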